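import Cfsg.Agent.Lib.BSW.Counts
import Cfsg.Agent.Lib.BSW.Plus
import Cfsg.Agent.Lib.BSW.MinusGlobal
import Cfsg.Agent.Lib.Coprime.Action

/-!
Brauer–Suzuki–Wall configuration: both cases of the conclusion in one shape (helper3).
-/

set_option autoImplicit false

namespace Cfsg.Agent.Lib.BSW

open Cfsg

universe u

variable {G : Type u} [Group G] [Finite G] {t s : G} {K : Subgroup G} {m : ℕ}

/-- The two cases in one shape: a self centralising `Q` with abelian complement `D` in its
normaliser, `D` being a trivial intersection set whose normaliser is twice as large. -/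
theorem Hyp.output (h : Hyp t K s m) :
    ∃ Q D : Subgroup G, 2 * Nat.card G = Nat.card Q * (Nat.card Q + 1) * (Nat.card Q - 1) ∧
      Nat.card Q = 2 * Nat.card D + 1 ∧
      (∀ x ∈ Q, x ≠ 1 → Subgroup.centralizer ({x} : Set G) = Q) ∧
      (∀ a ∈ D, ∀ b ∈ D, a * b = b * a) ∧ Q ⊓ D = ⊥ ∧
      Subgroup.normalizer (Q : Set G) = Q ⊔ D ∧
      (∀ d ∈ D, d ≠ 1 → ∀ g : G, g * d * g⁻¹ ∈ D → g ∈ Subgroup.normalizer (D : Set G)) ∧
      (D ≠ ⊥ → ∃ u ∈ Subgroup.normalizer (D : Set G), u ∉ D ∧
        ∀ g ∈ Subgroup.normalizer (D : Set G), g ∈ D ∨ u * g ∈ D) := by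
  classical
  have hm := h.mpos
  rcases BSW.dichotomy h with ⟨hG, P, hP⟩ | ⟨hG, P, hP, hne⟩
  · obtain ⟨Q, hQ, hcent, hdisj, hN⟩ := h.plus hG P hP.inv hP.card hP.pos hP.neg
    have hKN : Subgroup.normalizer (K : Set G) = Subgroup.centralizer ({t} : Set G) := by
      refine le_antisymm (fun n hn => h.mem_H_of_conj_mem h.tK (ne_one_of_orderOf h.ht)
        ((Subgroup.mem_normalizer_iff.1 hn t).1 h.tK)) fun n hn => ?_
      have hc : ∀ a : G, a ∈ Subgroup.centralizer ({t} : Set G) → ∀ y ∈ K,
          a * y * a⁻¹ ∈ K := fun a ha y hy => by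
        by_cases haK : a ∈ K
        · rw [(h.conj_K hy ha).1 haK]; exact hy
        · rw [(h.conj_K hy ha).2 haK]; exact inv_mem hy
      refine Subgroup.mem_normalizer_iff.2 fun y => ⟨hc n hn y, fun hy => ?_⟩
      have := hc n⁻¹ (inv_mem hn) _ hy
      simpa [mul_assoc] using this
    refine ⟨Q, K, ?_, by rw [hQ, h.card]; ring, hcent, h.comm, hdisj, hN,
      fun d hd hd1 g hg => ?_, fun _ => ⟨s, ?_, h.sK, fun g hg => ?_⟩⟩
    · rw [hG, hQ, Nat.add_sub_cancel]; ring
    · rw [hKN]; exact h.mem_H_of_conj_mem hd hd1 hg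
    · rw [hKN]; exact h.sH
    · exact h.mem_H (hKN ▸ hg)
  · obtain ⟨Q, D, hQ, hD, hcent, hcomm, hdisj, hN, hX⟩ :=
      BSW.Minus.main ⟨h, hG, hP.inv, hP.card, hP.pos, hP.neg, hne⟩
    have hodd : Odd (Nat.card D) := by rw [hD]; exact ⟨m - 1, by omega⟩
    refine ⟨Q, D, ?_, by rw [hQ, hD]; omega, hcent, hcomm, hdisj, hN, ?_, fun hD1 => ?_⟩
    · rw [hG, hQ, Nat.sub_add_cancel (show 1 ≤ 4 * m by omega),
        show 4 * m - 1 - 1 = 4 * m - 2 by omega]
      ring
    · intro d hd hd1 g hg
      have hbd : ∀ x ∈ D, x ≠ 1 →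
          Subgroup.normalizer (Subgroup.zpowers x : Set G) = Subgroup.normalizer (D : Set G) :=
        fun x hx hx1 => (hX _ (Subgroup.zpowers_le.2 hx)
          (fun e => hx1 (Subgroup.zpowers_eq_bot.1 e))).1
      have hgd1 : g * d * g⁻¹ ≠ 1 := fun e => hd1 (conj_eq_one_iff.1 e)
      obtain ⟨u, hu, huD, huinv, hND⟩ :=
        (hX _ (Subgroup.zpowers_le.2 hd) (fun e => hd1 (Subgroup.zpowers_eq_bot.1 e))).2
      have huN : Subgroup.zpowers u ≤ Subgroup.normalizer (D : Set G) := by
        rw [hND]; exact le_sup_right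
      have key : ∀ y ∈ D, g * y * g⁻¹ ∈ D := by
        intro y hy
        have hyN : y ∈ Subgroup.normalizer (Subgroup.zpowers d : Set G) :=
          (hbd d hd hd1).symm ▸ Subgroup.le_normalizer hy
        have h1 : g * y * g⁻¹ ∈ Subgroup.normalizer (D : Set G) := by
          rw [← hbd _ hg hgd1, Subgroup.mem_normalizer_iff]
          intro z
          rw [show g * d * g⁻¹ = MulAut.conj g d from rfl, ← MulEquiv.coe_toMonoidHom,
            ← MonoidHom.map_zpowers]
          have hmem : ∀ w, w ∈ (Subgroup.zpowers d).map (MulAut.conj g).toMonoidHom ↔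
              g⁻¹ * w * g ∈ Subgroup.zpowers d := fun w => by
            rw [Subgroup.mem_map_equiv]; simp [mul_assoc]
          rw [hmem, hmem, Subgroup.mem_normalizer_iff.1 hyN (g⁻¹ * z * g)]
          simp [mul_assoc]
        rw [hND, sup_comm, Coprime.mem_sup_of_le_normalizer huN] at h1
        obtain ⟨a, ha, b, hb, hab⟩ := h1
        obtain ⟨i, rfl⟩ := Subgroup.mem_zpowers_iff.1 ha
        have hu2 : u ^ (2 : ℤ) = 1 := by rw [zpow_two]; exact mul_self_of_orderOf hu
        rcases Int.even_or_odd' i with ⟨k, rfl | rfl⟩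
        · rw [zpow_mul, hu2, one_zpow, one_mul] at hab
          exact hab ▸ hb
        · rw [zpow_add, zpow_mul, hu2, one_zpow, one_mul, zpow_one] at hab
          exfalso
          have hsq : (g * y * g⁻¹) * (g * y * g⁻¹) = 1 := by
            rw [← hab]
            calc u * b * (u * b) = (u * b * u⁻¹) * (u * u) * b := by group
              _ = 1 := by rw [huinv b hb, mul_self_of_orderOf hu, mul_one, inv_mul_cancel]
          have hy2 : y * y = 1 := by
            have : g * (y * y) * g⁻¹ = 1 := by rw [← hsq]; group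
            exact conj_eq_one_iff.1 this
          have hy1 : y = 1 := by
            by_contra hy1
            have h2 := orderOf_dvd_natCard (⟨y, hy⟩ : D)
            rw [Subgroup.orderOf_mk, orderOf_eq_two hy1 hy2] at h2
            exact Nat.not_even_iff_odd.2 hodd (even_iff_two_dvd.2 h2)
          rw [hy1, mul_one, mul_inv_cancel] at hab
          exact huD (by rw [eq_inv_of_mul_eq_one_left hab]; exact inv_mem hb)
      rw [Subgroup.mem_normalizer_iff]
      intro y
      refine ⟨key y, fun hy => ?_⟩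
      have hfin : Function.Surjective (fun x : D => (⟨g * x * g⁻¹, key x x.2⟩ : D)) :=
        Finite.surjective_of_injective fun a b e => by
          have e' : g * (a : G) * g⁻¹ = g * (b : G) * g⁻¹ := congrArg Subtype.val e
          exact Subtype.ext (mul_left_cancel (mul_right_cancel e'))
      obtain ⟨x, hx⟩ := hfin ⟨_, hy⟩
      have hx' : g * (x : G) * g⁻¹ = g * y * g⁻¹ := congrArg Subtype.val hx
      rw [← mul_left_cancel (mul_right_cancel hx')]
      exact x.2
    · obtain ⟨-, u, hu, huD, huinv, hND⟩ := hX D le_rfl hD1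
      have huN : Subgroup.zpowers u ≤ Subgroup.normalizer (D : Set G) := by
        rw [hND]; exact le_sup_right
      refine ⟨u, huN (Subgroup.mem_zpowers u), huD, fun g hg => ?_⟩
      rw [hND, sup_comm, Coprime.mem_sup_of_le_normalizer huN] at hg
      obtain ⟨a, ha, b, hb, rfl⟩ := hg
      obtain ⟨i, rfl⟩ := Subgroup.mem_zpowers_iff.1 ha
      have hu2 : u ^ (2 : ℤ) = 1 := by rw [zpow_two]; exact mul_self_of_orderOf hu
      rcases Int.even_or_odd' i with ⟨k, rfl | rfl⟩
      · left; rw [zpow_mul, hu2, one_zpow, one_mul]; exact hb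
      · right
        rw [zpow_add, zpow_mul, hu2, one_zpow, one_mul, zpow_one, ← mul_assoc,
          mul_self_of_orderOf hu, one_mul]
        exact hb

end Cfsg.Agent.Lib.BSW
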