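import Cfsg.Agent.S0731
import Cfsg.Agent.Lib.Char.Burnside
import Cfsg.Agent.Lib.Coprime.Action
import Mathlib.GroupTheory.GroupAction.MultipleTransitivity
import Mathlib.FieldTheory.Finite.Basic

/-!
A simple group with the subgroups produced by the Brauer–Suzuki–Wall theorem is a two dimensional
projective special linear group (helper3).
-/

set_option autoImplicit false

namespace Cfsg.Agent.Lib.BSW

open Cfsg MulAction

universe u

/-- A nonabelian simple group with a self centralising `Q` of order `2 * |D| + 1` and index of the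
normaliser `Q ⊔ D` equal to `|Q| + 1` is `PSL(2, F)` for a finite field `F` of odd order. -/
theorem psl_of_output {G : Type u} [Group G] [Finite G] [IsSimpleGroup G]
    (hna : ¬ ∀ a b : G, a * b = b * a) (Q D : Subgroup G)
    (hG : 2 * Nat.card G = Nat.card Q * (Nat.card Q + 1) * (Nat.card Q - 1))
    (hq : Nat.card Q = 2 * Nat.card D + 1)
    (hcent : ∀ x ∈ Q, x ≠ 1 → Subgroup.centralizer ({x} : Set G) = Q)
    (hdisj : Q ⊓ D = ⊥) (hN : Subgroup.normalizer (Q : Set G) = Q ⊔ D)
    (hTI : ∀ d ∈ D, d ≠ 1 → ∀ g : G, g * d * g⁻¹ ∈ D → g ∈ Subgroup.normalizer (D : Set G))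
    (hu : D ≠ ⊥ → ∃ u ∈ Subgroup.normalizer (D : Set G), u ∉ D) :
    ∃ (F : Type) (_ : Field F) (_ : Fintype F),
      Odd (Fintype.card F) ∧ Nonempty (G ≃* Matrix.ProjectiveSpecialLinearGroup (Fin 2) F) := by
  classical
  set N := Subgroup.normalizer (Q : Set G) with hNdef
  set q := Nat.card Q with hqdef
  set d := Nat.card D with hddef
  have hdpos : 0 < d := Nat.card_pos
  have hq3 : 3 ≤ q := by omega
  have hQN : Q ≤ N := Subgroup.le_normalizer
  have hDN : D ≤ N := by rw [hN]; exact le_sup_right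
  have hcop : d.Coprime q := by
    rw [hq, mul_comm 2 d, Nat.coprime_mul_left_add_right]
    exact Nat.coprime_one_right d
  have hcardN : Nat.card N = d * q := by
    rw [hN, sup_comm, Coprime.card_sup_of_coprime hDN hcop]
  have hGcard : Nat.card G = q * (q + 1) * d := by
    have : q - 1 = 2 * d := by omega
    rw [this] at hG
    linarith
  have hindex : N.index = q + 1 := by
    have h1 := N.card_mul_index
    rw [hcardN, hGcard] at h1
    have hpos : 0 < d * q := Nat.mul_pos hdpos (by omega)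
    apply Nat.eq_of_mul_eq_mul_left hpos
    rw [h1]; ring
  have hD : D ≠ ⊥ := by
    intro e
    have hd1 : d = 1 := by rw [hddef, e, Subgroup.card_bot]
    have hG12 : Nat.card G = 12 := by
      rw [hGcard, show q = 3 by omega, hd1]
    have hsol : Group.IsSolvable G :=
      Cfsg.Agent.Lib.Char.isSolvable_of_card_eq_two_primes Nat.prime_two Nat.prime_three 12 G hG12
        fun r hr hrd => by
          rw [hG12, show (12 : ℕ) = 2 * 2 * 3 by rfl] at hrd
          rcases (Nat.Prime.dvd_mul hr).1 hrd with h | h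
          · rcases (Nat.Prime.dvd_mul hr).1 h with h' | h' <;>
              exact Or.inl ((Nat.prime_dvd_prime_iff_eq hr Nat.prime_two).1 h')
          · exact Or.inr ((Nat.prime_dvd_prime_iff_eq hr Nat.prime_three).1 h)
    exact hna (IsSimpleGroup.comm_iff_isSolvable.2 hsol)
  -- elements of `Q` normalising `D` are trivial
  have hQND : ∀ x ∈ Q, x ∈ Subgroup.normalizer (D : Set G) → x = 1 := by
    intro x hx hxD
    by_contra hx1
    refine hD ((Subgroup.eq_bot_iff_forall _).2 fun a ha => ?_)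
    have h1 : x * a * x⁻¹ * a⁻¹ ∈ D :=
      mul_mem ((Subgroup.mem_normalizer_iff.1 hxD a).1 ha) (inv_mem ha)
    have h2 : x * a * x⁻¹ * a⁻¹ ∈ Q := by
      have := (Subgroup.mem_normalizer_iff.1 (hDN ha) x⁻¹).1 (inv_mem hx)
      rw [show x * a * x⁻¹ * a⁻¹ = x * (a * x⁻¹ * a⁻¹) by group]
      exact mul_mem hx this
    have h3 : x * a * x⁻¹ * a⁻¹ ∈ Q ⊓ D := ⟨h2, h1⟩
    rw [hdisj, Subgroup.mem_bot, mul_inv_eq_one, mul_inv_eq_iff_eq_mul] at h3
    have h4 : a ∈ Q := by
      rw [← hcent x hx hx1]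
      exact Subgroup.mem_centralizer_singleton_iff.2 h3.symm
    have h5 : a ∈ Q ⊓ D := ⟨h4, ha⟩
    rwa [hdisj, Subgroup.mem_bot] at h5
  set b : G ⧸ N := ((1 : G) : G ⧸ N) with hbdef
  have hstab : stabilizer G b = N := MulAction.stabilizer_quotient N
  have hfixb : ∀ g : G, g • b = b ↔ g ∈ N := fun g => by
    rw [← MulAction.mem_stabilizer_iff, hstab]
  have hNtop : N ≠ ⊤ := fun e => by rw [e, Subgroup.index_top] at hindex; omega
  -- `N` has no elements of order dividing `q` outside `Q`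
  haveI hQnorm : (Q.subgroupOf N).Normal := Subgroup.normal_in_normalizer
  have hqQ : ∀ x ∈ N, x ^ q = 1 → x ∈ Q := by
    intro x hx hxq
    have hidx : (Q.subgroupOf N).index = d := by
      have h1 := (Q.subgroupOf N).card_mul_index
      rw [Nat.card_congr (Subgroup.subgroupOfEquivOfLe hQN).toEquiv, hcardN, mul_comm d q] at h1
      exact Nat.eq_of_mul_eq_mul_left (by omega) h1
    have h1 : orderOf (QuotientGroup.mk (⟨x, hx⟩ : N) : N ⧸ Q.subgroupOf N) ∣ d := by
      rw [← hidx]; exact orderOf_dvd_natCard _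
    have h2 : orderOf (QuotientGroup.mk (⟨x, hx⟩ : N) : N ⧸ Q.subgroupOf N) ∣ q := by
      refine orderOf_dvd_of_pow_eq_one ?_
      rw [← QuotientGroup.mk_pow, show (⟨x, hx⟩ : N) ^ q = 1 from Subtype.ext hxq,
        QuotientGroup.mk_one]
    have h3 := orderOf_eq_one_iff.1 (Nat.eq_one_of_dvd_coprimes hcop h1 h2)
    exact Subgroup.mem_subgroupOf.1 ((QuotientGroup.eq_one_iff (⟨x, hx⟩ : N)).1 h3)
  have hfree : ∀ x ∈ Q, ∀ y : G ⧸ N, y ≠ b → x • y = y → x = 1 := by
    intro x hx y hy hxy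
    by_contra hx1
    induction y using QuotientGroup.induction_on with
    | H g =>
      have h2 : g⁻¹ * x * g ∈ N := by
        have h3 : ((x * g : G) : G ⧸ N) = g := hxy
        rw [mul_assoc]
        exact QuotientGroup.eq.1 h3.symm
      have h2q : (g⁻¹ * x * g) ^ q = 1 := by
        have h4 : x ^ q = 1 := by
          have := pow_card_eq_one' (G := Q) (x := ⟨x, hx⟩)
          exact congrArg Subtype.val this
        have h5 := conj_pow (i := q) (a := g⁻¹) (b := x)
        rw [inv_inv] at h5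
        rw [h5, h4, mul_one, inv_mul_cancel]
      have h2Q := hqQ _ h2 h2q
      have h21 : g⁻¹ * x * g ≠ 1 := fun e => hx1 (by
        calc x = g * (g⁻¹ * x * g) * g⁻¹ := by group
          _ = 1 := by rw [e, mul_one, mul_inv_cancel])
      have key : ∀ a ∈ Q, g⁻¹ * a * g ∈ Q := by
        intro a ha
        rw [← hcent _ h2Q h21]
        refine Subgroup.mem_centralizer_singleton_iff.2 ?_
        have hax : a * x = x * a := by
          rw [← hcent x hx hx1] at ha
          exact Subgroup.mem_centralizer_singleton_iff.1 ha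
        calc g⁻¹ * a * g * (g⁻¹ * x * g) = g⁻¹ * (a * x) * g := by group
          _ = _ := by rw [hax]; group
      have hgN : g⁻¹ ∈ N := by
        rw [hNdef, Subgroup.mem_normalizer_iff]
        intro a
        have key' : ∀ a ∈ Q, g⁻¹ * a * g⁻¹⁻¹ ∈ Q := fun a ha => by rw [inv_inv]; exact key a ha
        refine ⟨key' a, fun ha => ?_⟩
        have hsurj : Function.Surjective (fun z : Q => (⟨g⁻¹ * z * g⁻¹⁻¹, key' z z.2⟩ : Q)) :=
          Finite.surjective_of_injective fun z w e => by
            have e' : g⁻¹ * (z : G) * g⁻¹⁻¹ = g⁻¹ * (w : G) * g⁻¹⁻¹ := congrArg Subtype.val e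
            exact Subtype.ext (mul_left_cancel (mul_right_cancel e'))
        obtain ⟨z, hz⟩ := hsurj ⟨_, ha⟩
        have hz' : g⁻¹ * (z : G) * g⁻¹⁻¹ = g⁻¹ * a * g⁻¹⁻¹ := congrArg Subtype.val hz
        rw [← mul_left_cancel (mul_right_cancel hz')]
        exact z.2
      refine hy ?_
      rw [hbdef, eq_comm, QuotientGroup.eq, inv_one, one_mul]
      exact inv_mem_iff.1 hgN
  have hcardΩ : Nat.card (G ⧸ N) = q + 1 := hindex
  have hfixne : ∀ x ∈ N, ∀ y : G ⧸ N, y ≠ b → x • y ≠ b := fun x hx y hy e =>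
    hy (MulAction.injective x (e.trans ((hfixb x).2 hx).symm))
  have hreg : ∀ y z : G ⧸ N, y ≠ b → z ≠ b → ∃! w : Q, (w : G) • y = z := by
    intro y z hy hz
    haveI := Fintype.ofFinite (G ⧸ N)
    haveI := Fintype.ofFinite Q
    let f : Q → {w : G ⧸ N // w ≠ b} := fun x => ⟨(x : G) • y, hfixne x (hQN x.2) y hy⟩
    have hf : Function.Bijective f := (Fintype.bijective_iff_injective_and_card f).2
      ⟨fun x x' e => by
        have e' : (x : G) • y = (x' : G) • y := congrArg Subtype.val e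
        have h1 := hfree _ (mul_mem (inv_mem x'.2) x.2) y hy (by rw [mul_smul, e', inv_smul_smul])
        exact Subtype.ext (inv_mul_eq_one.1 h1).symm, by
        rw [Fintype.card_subtype_compl, Fintype.card_subtype_eq, ← Nat.card_eq_fintype_card,
          ← Nat.card_eq_fintype_card, hcardΩ]
        omega⟩
    obtain ⟨x, hx⟩ := hf.2 ⟨z, hz⟩
    exact ⟨x, congrArg Subtype.val hx, fun x' hx' => hf.1 ((Subtype.ext hx').trans hx.symm)⟩
  -- the second fixed point of `D`
  obtain ⟨u, huD, hunD⟩ := hu hD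
  have huN : u ∉ N := by
    intro hcon
    rw [hN, sup_comm, Coprime.mem_sup_of_le_normalizer hDN] at hcon
    obtain ⟨a, ha, x, hx, rfl⟩ := hcon
    refine hunD ?_
    have := hQND x hx ((Subgroup.mul_mem_cancel_left _ (Subgroup.le_normalizer ha)).1 huD)
    rw [this, mul_one]
    exact ha
  set y₀ : G ⧸ N := u • b with hy₀def
  have hy₀ : y₀ ≠ b := fun e => huN ((hfixb u).1 e)
  have hDy₀ : ∀ a ∈ D, a • y₀ = y₀ := by
    intro a ha
    have h1 : u⁻¹ * a * u ∈ D := by
      have := (Subgroup.mem_normalizer_iff.1 (inv_mem huD) a).1 ha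
      rwa [inv_inv] at this
    have h2 := (hfixb _).2 (hDN h1)
    rw [mul_smul, mul_smul, inv_smul_eq_iff] at h2
    exact h2
  have hstab2 : ∀ k : G, k • b = b → k • y₀ = y₀ → k ∈ D := by
    intro k hk hk0
    have hkN := (hfixb k).1 hk
    rw [hN, sup_comm, Coprime.mem_sup_of_le_normalizer hDN] at hkN
    obtain ⟨a, ha, x, hx, rfl⟩ := hkN
    rw [mul_smul, ← eq_inv_smul_iff, hDy₀ _ (inv_mem ha)] at hk0
    rw [hfree x hx y₀ hy₀ hk0, mul_one]
    exact ha
  have htrans : ∀ a a' : G ⧸ N, a ≠ a' → ∃ g : G, g • a = b ∧ g • a' = y₀ := by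
    intro a a' haa'
    obtain ⟨g, hg⟩ := MulAction.exists_smul_eq G a b
    have hne : g • a' ≠ b := fun e => haa' (MulAction.injective g (hg.trans e.symm))
    obtain ⟨x, hx, -⟩ := hreg (g • a') y₀ hne hy₀
    exact ⟨x * g, by rw [mul_smul, hg, (hfixb _).2 (hQN x.2)], by rw [mul_smul, hx]⟩
  have hker : ∀ g : G, (∀ y : G ⧸ N, g • y = y) → g = 1 := by
    intro g hg
    have hg' : g ∈ (MulAction.toPermHom G (G ⧸ N)).ker := Equiv.Perm.ext hg
    rcases IsSimpleGroup.eq_bot_or_eq_top_of_normal (MulAction.toPermHom G (G ⧸ N)).ker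
        inferInstance with h | h
    · rwa [h, Subgroup.mem_bot] at hg'
    · refine absurd (eq_top_iff.2 fun x _ => ?_) hNtop
      have hx : x ∈ (MulAction.toPermHom G (G ⧸ N)).ker := h ▸ Subgroup.mem_top x
      exact (hfixb x).1 (DFunLike.congr_fun (MonoidHom.mem_ker.1 hx) b)
  obtain ⟨d₀, hd₀, hd₀1⟩ := (Subgroup.bot_or_exists_ne_one D).resolve_left hD
  have hZ : Cfsg.IsZassenhausGroup G (G ⧸ N) := by
    refine ⟨⟨fun {g h} e => ?_⟩, MulAction.is_two_pretransitive_iff.2 ?_, ?_,
      ⟨d₀, hd₀1, b, y₀, hy₀.symm, (hfixb _).2 (hDN hd₀), hDy₀ _ hd₀⟩, ?_⟩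
    · exact (inv_mul_eq_one.1 (hker (h⁻¹ * g) fun y => by rw [mul_smul, e, inv_smul_smul])).symm
    · intro a a' c c' haa' hcc'
      obtain ⟨g, hg, hg'⟩ := htrans a a' haa'
      obtain ⟨h, hh, hh'⟩ := htrans c c' hcc'
      exact ⟨h⁻¹ * g, by rw [mul_smul, hg, ← hh, inv_smul_smul],
        by rw [mul_smul, hg', ← hh', inv_smul_smul]⟩
    · intro g a a' c haa' ha'c hac hga hga' hgc
      obtain ⟨h, hh, hh'⟩ := htrans a a' haa'
      by_contra hg1
      set k := h * g * h⁻¹ with hk
      have hk1 : k ≠ 1 := fun e => hg1 (conj_eq_one_iff.1 e)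
      have hfix : ∀ p : G ⧸ N, g • p = p → k • (h • p) = h • p := fun p hp => by
        rw [hk, mul_smul, inv_smul_smul, mul_smul, hp]
      have hkb : k • b = b := by have := hfix a hga; rwa [hh] at this
      have hky : k • y₀ = y₀ := by have := hfix a' hga'; rwa [hh'] at this
      have hkD := hstab2 k hkb hky
      have hcb : h • c ≠ b := fun e => hac (MulAction.injective h (hh.trans e.symm))
      obtain ⟨x, hx, -⟩ := hreg y₀ (h • c) hy₀ hcb
      have hxk : ((x : G)⁻¹ * k * x) ∈ D := by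
        refine hstab2 _ ?_ ?_
        · rw [mul_smul, mul_smul, (hfixb _).2 (hQN x.2), hkb, (hfixb _).2 (hQN (inv_mem x.2))]
        · rw [mul_smul, mul_smul, hx, hfix c hgc, ← hx, inv_smul_smul]
      have hxN : (x : G)⁻¹ ∈ Subgroup.normalizer (D : Set G) :=
        hTI k hkD hk1 _ (by rw [inv_inv]; exact hxk)
      have := hQND _ (inv_mem x.2) hxN
      rw [inv_eq_one] at this
      rw [this, one_smul] at hx
      exact ha'c (MulAction.injective h (hh'.trans hx))
    · intro M hM htr
      rcases IsSimpleGroup.eq_bot_or_eq_top_of_normal M hM with h | h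
      · exfalso
        obtain ⟨g, hg⟩ := htr.exists_smul_eq b y₀
        have hg1 : (g : G) = 1 :=
          Subgroup.mem_bot.1 ((SetLike.ext_iff.1 h (g : G)).1 g.2)
        exact hy₀ (hg.symm.trans (show (g : G) • b = b by rw [hg1, one_smul]))
      · refine ⟨b, fun e => hd₀1 ?_⟩
        have hd₀M : d₀ ∈ M := h ▸ Subgroup.mem_top d₀
        have h1 := (Subgroup.eq_bot_iff_forall _).1 e ⟨d₀, hd₀M⟩
          ((hfixb _).2 (hDN hd₀) : d₀ • b = b)
        exact congrArg Subtype.val h1
  have hQle : Q ≤ stabilizer G b := by rw [hstab]; exact hQN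
  have hQn : (Q.subgroupOf (stabilizer G b)).Normal := by rw [hstab]; infer_instance
  have hQab : IsMulCommutative Q := ⟨⟨fun x y => by
    by_cases hx : (x : G) = 1
    · exact Subtype.ext (by simp [hx])
    · have hy : (y : G) ∈ Subgroup.centralizer ({(x : G)} : Set G) :=
        (hcent x x.2 hx).symm ▸ y.2
      exact Subtype.ext (Subgroup.mem_centralizer_singleton_iff.1 hy).symm⟩⟩
  rcases Cfsg.Agent.S0731.result hZ b Q hQle hQn hQab hreg with ⟨h3, h3s⟩ | ⟨K, iF, iK, hc, hiso⟩
  · exfalso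
    haveI := Fintype.ofFinite (G ⧸ N)
    have hle : Fintype.card (Fin 3) ≤ Fintype.card (G ⧸ N) := by
      rw [← Nat.card_eq_fintype_card (α := G ⧸ N), hcardΩ, Fintype.card_fin]; omega
    obtain ⟨t⟩ := Function.Embedding.nonempty_of_card_le hle
    haveI : MulAction.IsPretransitive G (Fin 3 ↪ G ⧸ N) := h3
    have h1 := MulAction.index_stabilizer_of_transitive G t
    rw [h3s t, Subgroup.index_bot, Nat.card_eq_fintype_card (α := Fin 3 ↪ G ⧸ N),
      Fintype.card_embedding_eq, Fintype.card_fin, ← Nat.card_eq_fintype_card, hcardΩ,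
      Nat.descFactorial_succ, Nat.descFactorial_succ, Nat.descFactorial_one, hGcard] at h1
    have h2 : (q + 1 - 2) = 2 * d := by omega
    have h4 : q + 1 - 1 = q := by omega
    rw [h2, h4] at h1
    have hpos : 0 < q * (q + 1) * d := by positivity
    linarith
  · exact ⟨K, iF, iK, Nat.odd_iff.2 (FiniteField.odd_card_of_char_ne_two hc), hiso⟩

end Cfsg.Agent.Lib.BSW
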